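import Cfsg.Agent.Lib.HeldMult.Data
import Cfsg.Agent.Lib.HeldMult.Cert
import Cfsg.Agent.Lib.SchurMult.PermCert
import Cfsg.Agent.Lib.SporRecognition.Cert.He2058.Main

/-! The elements of the certificate inside the presented Held group. -/

set_option autoImplicit false
set_option maxRecDepth 100000

namespace CfsgLib.HeldMult

open CfsgLib.SporRecognition.CosetCert CfsgLib.SchurMult.PermCert

/-- The tables. -/
def heTables : Tables where
  n := 2058
  depth := 12
  ts := eltTbls

/-- The relators. -/
abbrev heRelators : Set (FreeGroup Cfsg.Spor.He.Gen) :=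
  Cfsg.Spor.coxRelators Cfsg.Spor.He.edges ∪ {r | r ∈ Cfsg.Spor.He.extra}

/-- A generator by its number. -/
def genOf (i : ℕ) : Cfsg.Spor.He.Gen :=
  [Cfsg.Spor.He.Gen.a, .b, .c, .d, .e, .f, .g].getD i .a

/-- A word of the certificate in the generators. -/
def wordOf (k : ℕ) : List (Cfsg.Spor.He.Gen × Bool) := (eltWords.getD k []).map fun i => (genOf i, true)

/-- The table agrees with the word. -/
noncomputable def wordCheck (k : ℕ) : Bool :=
  allBelow 12 2058 fun u => Nat.beq (heTables.img k u)
    (trace (wordTabs CfsgLib.SporRecognition.Cert.He2058.tabs (wordOf k)) u)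

theorem wordCheck_ok : ∀ k < 28, wordCheck k = true := by
  intro k hk
  interval_cases k <;> decide +kernel

/-- The permutation representation of degree 2058. -/
noncomputable def heHom : Cfsg.Spor.He →* Equiv.Perm (Fin 2058) := CfsgLib.SporRecognition.Cert.He2058.certified.hom

/-- The elements of the certificate. -/
def heElt (k : ℕ) : Cfsg.Spor.He := evalW (PresentedGroup.of (rels := heRelators)) (wordOf k)

theorem heHom_heElt {k : ℕ} (hk : k < 28) (u : Fin 2058) :
    ((heHom (heElt k) u : Fin 2058) : ℕ) = heTables.img k u := by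
  show ((CfsgLib.SporRecognition.Cert.He2058.certified.hom (evalW _ (wordOf k)) u : Fin 2058) : ℕ) = _
  rw [Certified.hom_evalW, evalW_tabPerm]
  exact (Nat.eq_of_beq_eq_true (allBelow_spec (wordCheck_ok k hk) u u.2)).symm

theorem realises (hs : IsSimpleGroup Cfsg.Spor.He) : heTables.Realises heHom heElt where
  deg := rfl
  img k hk u := heHom_heElt hk u
  inj := by
    rw [← MonoidHom.ker_eq_bot_iff]
    refine (hs.eq_bot_or_eq_top_of_normal heHom.ker inferInstance).resolve_right fun htop => ?_
    have h1 : heHom (heElt 0) = 1 := MonoidHom.mem_ker.1 (htop ▸ Subgroup.mem_top _)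
    have h2 : (List.range 2058).all (fun u => heTables.img 0 u == u) = true := by
      simp only [List.all_eq_true, List.mem_range, beq_iff_eq]
      intro u hu
      rw [← heHom_heElt (by norm_num) ⟨u, hu⟩, h1]
      rfl
    exact absurd h2 (by decide +kernel)

end CfsgLib.HeldMult
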