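import Cfsg.Prelude.Def_Sporadic
import Cfsg.Agent.Lib.HeldMult.Elements
import Cfsg.Agent.Lib.SchurMult.Reduce
import Cfsg.Agent.Lib.SchurMult.SmallSylow

/-! The multiplier of the Held group is trivial. -/

set_option autoImplicit false
set_option Elab.async false
set_option maxRecDepth 100000

namespace CfsgLib.HeldMult

open CfsgLib.SchurMult CfsgLib.SchurMult.PermCert

theorem colHe_table : colHe.tableOK = true := by
  rw [SchurMult.Collector.tableOK, List.all_eq_true]
  intro i hi
  replace hi := List.mem_range.1 hi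
  have h : i < 10 := lt_of_lt_of_eq hi (by decide +kernel)
  interval_cases i <;> decide +kernel

theorem colHe_solved : colHe.solvedOK = true := by decide +kernel

theorem two_ok : heTables.twoOK colHe ptsHe orderHe = true := by
  simp only [SchurMult.PermCert.Tables.twoOK, Bool.and_eq_true]
  repeat' apply And.intro
  all_goals decide +kernel

/-- Pairs of words with equal values, for the prime 5. -/
def rels5 : List (List ℕ × List ℕ) :=
  [([15, 16], [16, 15]), (Tables.rep 15 5, []), (Tables.rep 16 5, []),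
    ([17, 15], Tables.rep 15 0 ++ Tables.rep 16 1 ++ [17]),
    ([17, 16], Tables.rep 15 1 ++ Tables.rep 16 3 ++ [17])]

/-- Pairs of words with equal values, for an extraspecial subgroup. -/
def relsExtra (p x y z g h a b c d a' b' c' d' : ℕ) : List (List ℕ × List ℕ) :=
  [([x, y], [z, y, x]), (Tables.rep x p, []), (Tables.rep y p, []), (Tables.rep z p, []),
    ([x, z], [z, x]), ([y, z], [z, y]),
    ([g, x], Tables.rep x a ++ Tables.rep z b ++ [g]), ([g, z], Tables.rep x c ++ Tables.rep z d ++ [g]),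
    ([h, y], Tables.rep y a' ++ Tables.rep z b' ++ [h]), ([h, z], Tables.rep y c' ++ Tables.rep z d' ++ [h])]

theorem rels5_ok : rels5.all (fun r => heTables.sameWord r.1 r.2) = true := by decide +kernel

theorem rels3_ok : (relsExtra 3 18 19 20 21 22 0 1 1 2 1 0 0 2).all
    (fun r => heTables.sameWord r.1 r.2) = true := by decide +kernel

theorem rels7_ok : (relsExtra 7 23 24 25 26 27 1 0 0 6 1 0 0 2).all
    (fun r => heTables.sameWord r.1 r.2) = true := by decide +kernel

theorem z_ne : (List.range 2058).all (fun u => heTables.img 20 u == u) = false ∧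
    (List.range 2058).all (fun u => heTables.img 25 u == u) = false := by decide +kernel

theorem words_ok :
    (heTables.keysIncr pts5 words5 = true ∧ words5.length = 5 ^ 2 ∧
      (∀ w ∈ words5, ∀ i ∈ w, i = 15 ∨ i = 16) ∧ ∀ q ∈ pts5, q < 2058) ∧
    (heTables.keysIncr pts3 words3 = true ∧ words3.length = 3 ^ 3 ∧
      (∀ w ∈ words3, ∀ i ∈ w, i = 18 ∨ i = 19) ∧ ∀ q ∈ pts3, q < 2058) ∧
    (heTables.keysIncr pts7 words7 = true ∧ words7.length = 7 ^ 3 ∧
      (∀ w ∈ words7, ∀ i ∈ w, i = 23 ∨ i = 24) ∧ ∀ q ∈ pts7, q < 2058) := by decide +kernel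

variable {Γ : Type} [Group Γ] [Finite Γ] {τ : Γ →* Cfsg.Spor.He}

/-- The extraspecial primes. -/
theorem not_dvd_extra [Finite Cfsg.Spor.He] (hR : heTables.Realises heHom heElt)
    (hτ : Cfsg.IsStemExtension τ) {p m x y z g h a b c d a' b' c' d' : ℕ} (hp : p.Prime)
    (hok : (relsExtra p x y z g h a b c d a' b' c' d').all (fun r => heTables.sameWord r.1 r.2) = true)
    (hz : (List.range 2058).all (fun u => heTables.img z u == u) = false) (hzlt : z < 28)
    (hdet : (a * d + (p - 1) * (b * c)) % p ≠ 1) (hdet' : (a' * d' + (p - 1) * (b' * c')) % p ≠ 1)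
    {pts : List ℕ} {words : List (List ℕ)}
    (hw : heTables.keysIncr pts words = true ∧ words.length = p ^ 3 ∧
      (∀ w ∈ words, ∀ i ∈ w, i = x ∨ i = y) ∧ ∀ q ∈ pts, q < 2058)
    (hcard : Nat.card Cfsg.Spor.He = p ^ 3 * m) (hm : ¬ p ∣ m) : ¬ p ∣ Nat.card τ.ker := by
  simp only [relsExtra, List.all_cons, List.all_nil, Bool.and_eq_true, and_true] at hok
  obtain ⟨e1, ex, ey, ez, exz, eyz, egx, egz, ehy, ehz⟩ := hok
  replace e1 := hR.eq_of_sameWord e1
  replace ex := hR.eq_of_sameWord ex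
  replace ey := hR.eq_of_sameWord ey
  replace ez := hR.eq_of_sameWord ez
  replace exz := hR.eq_of_sameWord exz
  replace eyz := hR.eq_of_sameWord eyz
  replace egx := hR.eq_of_sameWord egx
  replace egz := hR.eq_of_sameWord egz
  replace ehy := hR.eq_of_sameWord ehy
  replace ehz := hR.eq_of_sameWord ehz
  simp only [lprod_append, Tables.lprod_rep, lprod, mul_one] at e1 ex ey ez exz eyz egx egz ehy ehz
  have hzc : heElt x * heElt y * (heElt x)⁻¹ * (heElt y)⁻¹ = heElt z := by rw [e1]; group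
  refine OddSylow.not_dvd_of_extraspecial hτ hp hzc ex ey ?_ exz eyz
    (mul_inv_eq_iff_eq_mul.2 egx) (mul_inv_eq_iff_eq_mul.2 egz) hdet
    (mul_inv_eq_iff_eq_mul.2 ehy) (mul_inv_eq_iff_eq_mul.2 ehz) hdet' ?_
  · intro h1
    rw [← Bool.not_eq_true] at hz
    refine hz ?_
    simp only [List.all_eq_true, List.mem_range, beq_iff_eq]
    intro u hu
    rw [← heHom_heElt hzlt ⟨u, hu⟩, h1, map_one]
    rfl
  · exact hR.not_dvd_index hp hw.2.2.2 hw.1 hw.2.1 hw.2.2.1 hcard hm
      (Tables.natCard_closure_le_cube hp.pos ex ey ez hzc exz eyz)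

theorem hasCyclicSchurMultiplier_He (h : Cfsg.IsHe Cfsg.Spor.He) :
    Cfsg.HasCyclicSchurMultiplier Cfsg.Spor.He 1 := by
  obtain ⟨hs, hcard⟩ := h
  haveI : Finite Cfsg.Spor.He := Nat.finite_of_card_ne_zero (by rw [hcard]; norm_num)
  have hR := realises hs
  refine hasCyclicSchurMultiplier_one_of_primes fun p hp hpd Γ _ _ τ hτ => ?_
  rw [hcard] at hpd
  have hpd' : p ∣ 2 ^ 10 * 3 ^ 3 * 5 ^ 2 * 7 ^ 3 * 17 := by norm_num; exact hpd
  simp only [hp.dvd_mul] at hpd'
  obtain ⟨w5, w3, w7⟩ := words_ok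
  rcases hpd' with (((h | h) | h) | h) | h
  · obtain rfl := (Nat.prime_dvd_prime_iff_eq hp Nat.prime_two).1 (hp.dvd_of_dvd_pow h)
    exact hR.not_two_dvd two_ok colHe_table colHe_solved
      ⟨3935925, by norm_num, by rw [hcard]; rfl⟩ Γ τ hτ
  · obtain rfl := (Nat.prime_dvd_prime_iff_eq hp Nat.prime_three).1 (hp.dvd_of_dvd_pow h)
    exact not_dvd_extra hR hτ hp rels3_ok z_ne.1 (by norm_num) (by norm_num) (by norm_num) w3
      (m := 149273600) (by rw [hcard]; norm_num) (by norm_num)
  · obtain rfl := (Nat.prime_dvd_prime_iff_eq hp Nat.prime_five).1 (hp.dvd_of_dvd_pow h)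
    have hok := rels5_ok
    simp only [rels5, List.all_cons, List.all_nil, Bool.and_eq_true, and_true] at hok
    obtain ⟨e1, ex, ey, egx, egy⟩ := hok
    replace e1 := hR.eq_of_sameWord e1
    replace ex := hR.eq_of_sameWord ex
    replace ey := hR.eq_of_sameWord ey
    replace egx := hR.eq_of_sameWord egx
    replace egy := hR.eq_of_sameWord egy
    simp only [lprod_append, Tables.lprod_rep, lprod, mul_one] at e1 ex ey egx egy
    exact OddSylow.not_dvd_of_square hτ hp e1 ex (mul_inv_eq_iff_eq_mul.2 egx)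
      (mul_inv_eq_iff_eq_mul.2 egy) (by norm_num)
      (hR.not_dvd_index hp w5.2.2.2 w5.1 w5.2.1 w5.2.2.1 (m := 161215488)
        (by rw [hcard]; norm_num) (by norm_num) (Tables.natCard_closure_le_square hp.pos ex ey e1))
  · obtain rfl := (Nat.prime_dvd_prime_iff_eq hp (by norm_num)).1 (hp.dvd_of_dvd_pow h)
    exact not_dvd_extra hR hτ hp rels7_ok z_ne.2 (by norm_num) (by norm_num) (by norm_num) w7
      (m := 11750400) (by rw [hcard]; norm_num) (by norm_num)
  · obtain rfl := (Nat.prime_dvd_prime_iff_eq hp (by norm_num)).1 h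
    exact not_dvd_card_ker_of_sq_not_dvd hτ hp (by rw [hcard]; norm_num)

end CfsgLib.HeldMult
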